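import Cfsg.Agent.H514.DP.Core

/-!
# Elements of order five in `SL_2(4)` (S2454, `²E₆(2)`, `p = 5`)

`pe_uni` : the elements `[[1, t], [0, 1]]` of `SL_2(4)` are products of two elements of order five.
-/

set_option autoImplicit false

open Matrix
open scoped MatrixGroups

namespace Cfsg.Agent.H406.DP.SLFour

open Cfsg.Agent.H514.DP

variable {K : Type*} [Field K]

theorem exists_omega (hK : Nat.card K = 4) : (2 : K) = 0 ∧ ∃ w : K, w ^ 2 + w + 1 = 0 := by
  classical
  have hfin : Finite K := Nat.finite_of_card_ne_zero (by rw [hK]; norm_num)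
  have := Fintype.ofFinite K
  have hc : Fintype.card K = 4 := by rw [← Nat.card_eq_fintype_card, hK]
  have h4 : ((4 : ℕ) : K) = 0 := by rw [← hc]; exact FiniteField.cast_card_eq_zero K
  have h2 : (2 : K) = 0 := by
    have h5 : (2 : K) * 2 = 0 := by
      have : (2 : K) * 2 = ((4 : ℕ) : K) := by norm_num
      rw [this, h4]
    exact (mul_self_eq_zero.1 h5)
  refine ⟨h2, ?_⟩
  obtain ⟨w, hw⟩ : ∃ w : K, w ∉ ({0, 1} : Finset K) := by
    by_contra hcon
    push Not at hcon
    have h6 : Fintype.card K ≤ 2 := by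
      rw [← Finset.card_univ]
      exact (Finset.card_le_card (fun x _ => hcon x)).trans Finset.card_le_two
    omega
  rw [Finset.mem_insert, Finset.mem_singleton, not_or] at hw
  have h3 : w ^ 3 = 1 := by
    have := FiniteField.pow_card_sub_one_eq_one w hw.1
    rwa [hc] at this
  refine ⟨w, ?_⟩
  have h7 : (w - 1) * (w ^ 2 + w + 1) = 0 := by linear_combination h3
  rcases mul_eq_zero.1 h7 with h8 | h8
  · exact absurd (sub_eq_zero.1 h8) hw.2
  · exact h8

/-- Cayley-Hamilton in characteristic two. -/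
theorem sq_eq (h2 : (2 : K) = 0) {A : Matrix (Fin 2) (Fin 2) K} {t : K} (hd : A.det = 1) (hA : A 0 0 + A 1 1 = t) :
    A * A = t • A + 1 := by
  rw [Matrix.det_fin_two] at hd
  rw [Matrix.eta_fin_two A, Matrix.mul_fin_two, Matrix.one_fin_two, Matrix.smul_of, Matrix.smul_cons, Matrix.smul_cons,
    Matrix.smul_cons, Matrix.smul_cons]
  ext i j
  fin_cases i <;> fin_cases j
  · simp
    linear_combination -hd + A 0 0 * hA - h2
  · simp
    linear_combination A 0 1 * hA
  · simp
    linear_combination A 1 0 * hA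
  · simp
    linear_combination -hd + A 1 1 * hA - h2

/-- the trace determines the order -/
theorem pow_five (h2 : (2 : K) = 0) {M : SL(2, K)} {t : K} (ht : t ^ 2 + t + 1 = 0)
    (hM : M.1 0 0 + M.1 1 1 = t) : M ^ 5 = 1 := by
  apply Subtype.ext
  rw [Matrix.SpecialLinearGroup.coe_pow, Matrix.SpecialLinearGroup.coe_one]
  have h := sq_eq h2 M.2 hM
  set A := M.1 with hA
  have e3 : A * A * A = t • A + t • (1 : Matrix (Fin 2) (Fin 2) K) := by
    rw [h, add_mul, smul_mul_assoc, h, one_mul]
    linear_combination (norm := module) ht • A - h2 • (t • A)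
  have e4 : A * A * A * A = A + t • (1 : Matrix (Fin 2) (Fin 2) K) := by
    rw [e3, add_mul, smul_mul_assoc, h, smul_mul_assoc, one_mul]
    linear_combination (norm := module) ht • A - h2 • A
  have e5 : A ^ 5 = A * A * A * A * A := by noncomm_ring
  rw [e5, e4, add_mul, smul_mul_assoc, one_mul, h]
  linear_combination (norm := module) h2 • (t • A)

/-- **The unipotent elements of `SL_2(4)` are products of two elements of order five.** -/
theorem pe_uni (hK : Nat.card K = 4) (t : K) {M : SL(2, K)} (hM : M.1 = !![1, t; 0, 1]) : PE 5 2 M := by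
  obtain ⟨h2, w, hw⟩ := exists_omega hK
  by_cases ht : t = 0
  · have : M = 1 := by
      apply Subtype.ext
      rw [hM, ht, Matrix.SpecialLinearGroup.coe_one]
      exact Matrix.one_fin_two.symm
    rw [this]
    exact pe_one_elt 2
  · let A : SL(2, K) := ⟨!![w, t; t⁻¹, 0], by
      rw [Matrix.det_fin_two_of, mul_inv_cancel₀ ht]
      linear_combination -h2⟩
    have hA : A ^ 5 = 1 := pow_five h2 hw (by
      show w + 0 = w
      ring)
    have hw' : (w + 1) ^ 2 + (w + 1) + 1 = 0 := by linear_combination hw + (w + 1) * h2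
    have hMA : (M * A) ^ 5 = 1 := pow_five h2 hw' (by
      have h1 : (M * A).1 = !![1, t; 0, 1] * !![w, t; t⁻¹, 0] := by
        rw [Matrix.SpecialLinearGroup.coe_mul, hM]
      rw [h1, Matrix.mul_fin_two]
      show 1 * w + t * t⁻¹ + (0 * t + 1 * 0) = w + 1
      rw [mul_inv_cancel₀ ht]
      ring)
    have h5 : M = (M * A) * A⁻¹ := by rw [mul_inv_cancel_right]
    rw [h5]
    exact PE.mul (m := 1) (n := 1) (IsPE.pe ⟨1, by rw [pow_one]; exact hMA⟩)
      (IsPE.pe (IsPE.inv ⟨1, by rw [pow_one]; exact hA⟩))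

end Cfsg.Agent.H406.DP.SLFour
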